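import Cfsg.Agent.Lib.ToddCox.J2O.Lv0
set_option autoImplicit false
set_option maxRecDepth 100000
namespace Cfsg.Agent.Lib.ToddCox.J2O

abbrev gen : ℕ → PresentedGroup Cfsg.Agent.Lib.ToddCox.J2T.rels := genP Cfsg.Agent.Lib.ToddCox.J2T.rels Cfsg.Agent.Lib.ToddCox.J2T.LT

theorem hLT : ∀ y, y < 5 → relW Cfsg.Agent.Lib.ToddCox.J2T.sg (Cfsg.Agent.Lib.ToddCox.J2T.LT.getD y 1) = [y] := by decide +kernel
theorem hLm : ∀ w ∈ L, ∀ a ∈ w, a < 5 := by decide +kernel
theorem low {ρ : PresentedGroup Cfsg.Agent.Lib.ToddCox.J2T.rels →* Equiv.Perm (Fin 280)}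
    (hρ : ∀ r (i : Fin 280), ((ρ (PresentedGroup.mk Cfsg.Agent.Lib.ToddCox.J2T.rels r) i : Fin 280) : ℕ) = tabW Cfsg.Agent.Lib.ToddCox.J2T.tab (relW Cfsg.Agent.Lib.ToddCox.J2T.sg r) i) :
    604800 ≤ Nat.card (sgsG (fun w => ρ (wordVal gen w)) L 0) := by
  have hel : ∀ w ∈ L, ∀ i : Fin 280, (((fun w => ρ (wordVal gen w)) w i : Fin 280) : ℕ) = tabW Cfsg.Agent.Lib.ToddCox.J2T.tab w i :=
    fun w hw i => rep_word hρ hLT (hLm w hw) i
  have h3 : 1 ≤ Nat.card (sgsG (fun w => ρ (wordVal gen w)) L 12) := sgsG_pos _ _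
  have c2 : ∀ k, k < 16 → chkOrbPos Cfsg.Agent.Lib.ToddCox.J2T.tab L 9 46 16 280 (fun q => orbR (Nat.add 415 q)) k = true :=
    defs_of_bits 16 11 1 (by norm_num) (by
      intro j hj
      interval_cases j
      · exact lv2_0
      )
  have h2 : 16 * 1 ≤ Nat.card (sgsG (fun w => ρ (wordVal gen w)) L 9) :=
    le_trans (Nat.mul_le_mul_left 16 h3) (level_bound (by norm_num) (by norm_num) hel fx2 c2)
  norm_num at h2
  have c1 : ∀ k, k < 135 → chkOrbPos Cfsg.Agent.Lib.ToddCox.J2T.tab L 5 37 135 280 (fun q => orbR (Nat.add 280 q)) k = true :=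
    defs_of_bits 135 11 1 (by norm_num) (by
      intro j hj
      interval_cases j
      · exact lv1_0
      )
  have h1 : 135 * 16 ≤ Nat.card (sgsG (fun w => ρ (wordVal gen w)) L 5) :=
    le_trans (Nat.mul_le_mul_left 135 h2) (level_bound (by norm_num) (by norm_num) hel fx1 c1)
  norm_num at h1
  have c0 : ∀ k, k < 280 → chkOrbPos Cfsg.Agent.Lib.ToddCox.J2T.tab L 0 0 280 280 (fun q => orbR (Nat.add 0 q)) k = true :=
    defs_of_bits 280 11 1 (by norm_num) (by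
      intro j hj
      interval_cases j
      · exact lv0_0
      )
  have h0 : 280 * 2160 ≤ Nat.card (sgsG (fun w => ρ (wordVal gen w)) L 0) :=
    le_trans (Nat.mul_le_mul_left 280 h1) (level_bound (by norm_num) (by norm_num) hel fx0 c0)
  norm_num at h0
  exact h0
end Cfsg.Agent.Lib.ToddCox.J2O
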