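import Cfsg.Agent.Lib.ToddCox.J2O.OrbD
set_option autoImplicit false
set_option maxRecDepth 100000
namespace Cfsg.Agent.Lib.ToddCox.J2O
open Cfsg.Agent.Lib.ToddCox.J2T in
theorem lv0_0 : allBits (fun k => bif Nat.blt k 280 then chkOrbPos Cfsg.Agent.Lib.ToddCox.J2T.tab L 0 0 280 280 (fun q => orbR (Nat.add 0 q)) k else true) 11 0 = true := by decide +kernel
theorem fx0 : ∀ w ∈ L.drop 5, tabW Cfsg.Agent.Lib.ToddCox.J2T.tab w 0 = 0 := by decide +kernel
theorem lv1_0 : allBits (fun k => bif Nat.blt k 135 then chkOrbPos Cfsg.Agent.Lib.ToddCox.J2T.tab L 5 37 135 280 (fun q => orbR (Nat.add 280 q)) k else true) 11 0 = true := by decide +kernel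
theorem fx1 : ∀ w ∈ L.drop 9, tabW Cfsg.Agent.Lib.ToddCox.J2T.tab w 37 = 37 := by decide +kernel
theorem lv2_0 : allBits (fun k => bif Nat.blt k 16 then chkOrbPos Cfsg.Agent.Lib.ToddCox.J2T.tab L 9 46 16 280 (fun q => orbR (Nat.add 415 q)) k else true) 11 0 = true := by decide +kernel
theorem fx2 : ∀ w ∈ L.drop 12, tabW Cfsg.Agent.Lib.ToddCox.J2T.tab w 46 = 46 := by decide +kernel
end Cfsg.Agent.Lib.ToddCox.J2O
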